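import Cfsg.Agent.Lib.Helper21.OAsch.Defs2
import Cfsg.Agent.Lib.Helper35.OAsch.TB4

set_option autoImplicit false
set_option linter.style.haveILetI false

namespace Cfsg.Agent.Lib.Helper98.OAsch

open Cfsg Cfsg.Geo Matrix Cfsg.Agent.Lib.Helper13.Asch Cfsg.Agent.Lib.Helper21.Asch
  Cfsg.Agent.Lib.Helper21.OAsch
open scoped Kronecker MatrixGroups

variable {ι : Type} [Fintype ι] [DecidableEq ι] {F : Type*} [Field F]
variable {Q : (ι → F) → F} {G : Matrix ι ι F}

lemma tw8_val_mul_inv {κ : Type} [Fintype κ] [DecidableEq κ] (h : GL κ F) :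
    (h : Matrix κ κ F) * ((h⁻¹ : GL κ F) : Matrix κ κ F) = 1 := by
  rw [← Units.val_mul, mul_inv_cancel, Units.val_one]

lemma tw8_val_inv_mul {κ : Type} [Fintype κ] [DecidableEq κ] (h : GL κ F) :
    ((h⁻¹ : GL κ F) : Matrix κ κ F) * (h : Matrix κ κ F) = 1 := by
  rw [← Units.val_mul, inv_mul_cancel, Units.val_one]

lemma tw8_embT_mul {m t : ℕ} (e : ι ≃ (Fin t → Fin m)) (B : GL ι F) (i : Fin t)
    (X Y : Matrix (Fin m) (Fin m) F) : embT e B i (X * Y) = embT e B i X * embT e B i Y := by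
  unfold embT
  rw [stdT_mul]
  have h1 : Matrix.reindex e.symm e.symm (stdT i X * stdT i Y)
      = Matrix.reindex e.symm e.symm (stdT i X) * Matrix.reindex e.symm e.symm (stdT i Y) := by
    simp only [Matrix.reindex_apply, Matrix.submatrix_mul_equiv]
  rw [h1]
  calc (B : Matrix ι ι F) * (Matrix.reindex e.symm e.symm (stdT i X) *
        Matrix.reindex e.symm e.symm (stdT i Y)) * ((B⁻¹ : GL ι F) : Matrix ι ι F)
      = (B : Matrix ι ι F) * Matrix.reindex e.symm e.symm (stdT i X) * 1 *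
        Matrix.reindex e.symm e.symm (stdT i Y) * ((B⁻¹ : GL ι F) : Matrix ι ι F) := by
        simp only [mul_one, mul_assoc]
    _ = _ := by rw [← tw8_val_inv_mul B]; simp only [mul_assoc]

lemma tw8_embT_one {m t : ℕ} (e : ι ≃ (Fin t → Fin m)) (B : GL ι F) (i : Fin t) :
    embT e B i (1 : Matrix (Fin m) (Fin m) F) = 1 := by
  unfold embT
  rw [stdT_one]
  have : Matrix.reindex e.symm e.symm (1 : Matrix (Fin t → Fin m) (Fin t → Fin m) F) = 1 := by
    simp [Matrix.reindex_apply]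
  rw [this, mul_one, tw8_val_mul_inv]

lemma tw8_embT_injective {m t : ℕ} [Nonempty (Fin t → Fin m)] (e : ι ≃ (Fin t → Fin m))
    (B : GL ι F) (i : Fin t) : Function.Injective (embT (F := F) e B i) := by
  intro X Y h
  unfold embT at h
  have h1 : Matrix.reindex e.symm e.symm (stdT i X) = Matrix.reindex e.symm e.symm (stdT i Y) := by
    have h2 := congrArg (fun M => ((B⁻¹ : GL ι F) : Matrix ι ι F) * M * (B : Matrix ι ι F)) h
    simp only [← mul_assoc, tw8_val_inv_mul, one_mul] at h2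
    simpa only [mul_assoc, tw8_val_inv_mul, mul_one] using h2
  exact stdT_injective i ((Matrix.reindex e.symm e.symm).injective h1)

lemma tw8_stdT_transpose {m t : ℕ} (i : Fin t) (X : Matrix (Fin m) (Fin m) F) :
    (stdT i X)ᵀ = stdT i Xᵀ := by
  ext x y
  simp only [Matrix.transpose_apply, stdT]
  by_cases h : ∀ j, j ≠ i → x j = y j
  · have h' : ∀ j, j ≠ i → y j = x j := fun j hj => (h j hj).symm
    rw [if_pos h, if_pos h']
  · have h' : ¬ ∀ j, j ≠ i → y j = x j := fun h2 => h (fun j hj => (h2 j hj).symm)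
    rw [if_neg h, if_neg h']

/-- the factor of an isometry of a pure Gram matrix is an isometry of the factor -/
lemma tw8_factor_iso {k t : ℕ} [Nonempty (Fin t → Fin k)] (i : Fin t)
    (Γ : Fin t → GL (Fin k) F) (X : Matrix (Fin k) (Fin k) F)
    (h : (stdT i X)ᵀ * pureT (fun i => (Γ i : Matrix (Fin k) (Fin k) F)) * stdT i X =
      pureT (fun i => (Γ i : Matrix (Fin k) (Fin k) F))) :
    Xᵀ * (Γ i : Matrix (Fin k) (Fin k) F) * X = Γ i := by
  have hinv : pureT (fun j => (((Γ j)⁻¹ : GL (Fin k) F) : Matrix (Fin k) (Fin k) F)) *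
      pureT (fun j => (Γ j : Matrix (Fin k) (Fin k) F)) = 1 := by
    rw [← pureT_mul, ← pureT_one]
    congr 1
    funext j
    exact tw8_val_inv_mul (Γ j)
  have h1 := pureT_conj (fun j => (((Γ j)⁻¹ : GL (Fin k) F) : Matrix (Fin k) (Fin k) F))
    (fun j => (Γ j : Matrix (Fin k) (Fin k) F)) (fun j => tw8_val_inv_mul (Γ j)) i Xᵀ
  have h2 : stdT i ((((Γ i)⁻¹ : GL (Fin k) F) : Matrix (Fin k) (Fin k) F) * Xᵀ *
      (Γ i : Matrix (Fin k) (Fin k) F) * X) = stdT i (1 : Matrix (Fin k) (Fin k) F) := by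
    rw [stdT_mul, ← h1, stdT_one, ← hinv, ← tw8_stdT_transpose]
    conv_rhs => rw [← h]
    simp only [mul_assoc]
  have h3 := stdT_injective i h2
  calc Xᵀ * (Γ i : Matrix (Fin k) (Fin k) F) * X
      = (Γ i : Matrix (Fin k) (Fin k) F) * ((((Γ i)⁻¹ : GL (Fin k) F) :
          Matrix (Fin k) (Fin k) F) * Xᵀ * (Γ i : Matrix (Fin k) (Fin k) F) * X) := by
        simp only [← mul_assoc, tw8_val_mul_inv, one_mul]
    _ = Γ i := by rw [h3, mul_one]

/-- TW8 -/
theorem factor_group_W {k t : ℕ} (e : ι ≃ (Fin t → Fin k)) (P : GL ι F) (i : Fin t)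
    (L : Subgroup (GL ι F)) (hL : Iso G L) (hperf : ⁅L, L⁆ = L) (hne : L ≠ ⊥)
    (hemb : ∀ x ∈ L, ∃ X, (x : Matrix ι ι F) = embT e P i X)
    (Γ : Fin t → GL (Fin k) F) (hG : Gp e P G = pureT (fun i => (Γ i : Matrix (Fin k) (Fin k) F))) :
    ∃ S : Subgroup (GL (Fin k) F), ⁅S, S⁆ = S ∧ S ≠ ⊥ ∧ ∀ x ∈ S,
      (x : Matrix (Fin k) (Fin k) F)ᵀ * (Γ i : Matrix (Fin k) (Fin k) F) *
        (x : Matrix (Fin k) (Fin k) F) = Γ i := by
  classical
  haveI : Nonempty (Fin t → Fin k) := by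
    rcases isEmpty_or_nonempty (Fin t → Fin k) with h | h
    · exfalso
      haveI : IsEmpty ι := e.isEmpty
      apply hne
      rw [eq_bot_iff]
      intro x _
      rw [Subgroup.mem_bot]
      exact Units.ext (Subsingleton.elim _ _)
    · exact h
  have hinj := tw8_embT_injective (F := F) e P i
  choose! X hX using hemb
  have hmul : ∀ x ∈ L, ∀ y ∈ L, X (x * y) = X x * X y := by
    intro x hx y hy
    apply hinj
    rw [tw8_embT_mul, ← hX x hx, ← hX y hy, ← hX _ (L.mul_mem hx hy), Units.val_mul]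
  have hone : X 1 = 1 := by
    apply hinj
    rw [tw8_embT_one, ← hX 1 L.one_mem, Units.val_one]
  let ψ : L →* GL (Fin k) F :=
    { toFun := fun x => ⟨X x.1, X x.1⁻¹,
        by rw [← hmul _ x.2 _ (L.inv_mem x.2), mul_inv_cancel, hone],
        by rw [← hmul _ (L.inv_mem x.2) _ x.2, inv_mul_cancel, hone]⟩
      map_one' := Units.ext hone
      map_mul' := fun x y => Units.ext (hmul _ x.2 _ y.2) }
  have hψ : Function.Injective ψ := by
    intro x y h
    have h1 : X x.1 = X y.1 := congrArg Units.val h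
    apply Subtype.ext
    apply Units.ext
    rw [hX _ x.2, hX _ y.2, h1]
  have htop : ⁅(⊤ : Subgroup L), (⊤ : Subgroup L)⁆ = (⊤ : Subgroup L) := by
    have h2 := Subgroup.map_subtype_commutator L
    rw [hperf] at h2
    apply Subgroup.map_injective L.subtype_injective
    rw [← MonoidHom.range_eq_map, Subgroup.range_subtype]
    exact h2
  refine ⟨ψ.range, ?_, ?_, ?_⟩
  · rw [MonoidHom.range_eq_map, ← Subgroup.map_commutator, htop]
  · intro hb
    apply hne
    rw [eq_bot_iff]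
    intro x hx
    have h1 : ψ ⟨x, hx⟩ ∈ ψ.range := ⟨_, rfl⟩
    rw [hb, Subgroup.mem_bot] at h1
    have h2 : (⟨x, hx⟩ : L) = 1 := hψ (by rw [h1, map_one])
    rw [Subgroup.mem_bot]
    exact congrArg Subtype.val h2
  · rintro _ ⟨x, rfl⟩
    have h1 := Cfsg.Agent.Lib.Helper35.OAsch.Gp_iso (G := G) e P x.1 (hL x.1 x.2) (stdT i (X x.1))
      (hX x.1 x.2)
    rw [hG] at h1
    exact tw8_factor_iso i Γ (X x.1) h1

end Cfsg.Agent.Lib.Helper98.OAsch
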