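import Cfsg.Agent.Lib.Helper21.OAsch.Defs2
import Cfsg.Agent.Lib.Helper12.Asch.K2b

set_option autoImplicit false

namespace Cfsg.Agent.Lib.Helper98.OAsch

open Cfsg Cfsg.Geo Matrix Cfsg.Agent.Lib.Helper13.Asch Cfsg.Agent.Lib.Helper21.Asch
  Cfsg.Agent.Lib.Helper21.OAsch
open scoped Kronecker MatrixGroups

variable {ι : Type} [Fintype ι] [DecidableEq ι] {F : Type*} [Field F]
variable {Q : (ι → F) → F} {G : Matrix ι ι F}

/-- TW9 -/
theorem three_le_of_rawW (hodd : Odd (Fintype.card ι)) {k t : ℕ} (e : ι ≃ (Fin t → Fin k))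
    (P : GL ι F) (i : Fin t) (L : Subgroup (GL ι F)) (hns : ¬ L ≤ scalars ι F)
    (hemb : ∀ x ∈ L, ∃ X, (x : Matrix ι ι F) = embT e P i X) : Odd k ∧ 3 ≤ k := by
  classical
  have hcard : Fintype.card ι = k ^ t := by
    have := Fintype.card_congr e
    simpa using this
  have hko : Odd k := by
    rw [hcard] at hodd
    rcases Nat.even_or_odd k with he | ho
    · have ht : t ≠ 0 := by
        rintro rfl
        exact i.elim0
      exact absurd (he.pow_of_ne_zero ht) (Nat.not_even_iff_odd.2 hodd)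
    · exact ho
  refine ⟨hko, ?_⟩
  by_contra hk
  obtain rfl : k = 1 := by
    obtain ⟨r, hr⟩ := hko
    omega
  apply hns
  intro x hxL
  obtain ⟨X, hX⟩ := hemb x hxL
  obtain ⟨c, hc⟩ : ∃ c : F, X = c • (1 : Matrix (Fin 1) (Fin 1) F) := by
    refine ⟨X 0 0, ?_⟩
    ext a b
    rw [Subsingleton.elim a 0, Subsingleton.elim b 0]
    simp
  rw [hc, Cfsg.Agent.Lib.Helper12.Asch.embT_smul_one] at hX
  have hc0 : c ≠ 0 := by
    rintro rfl
    rw [zero_smul] at hX
    have h1 : (x : Matrix ι ι F) * ((x⁻¹ : GL ι F) : Matrix ι ι F) = 1 := by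
      rw [← Units.val_mul, mul_inv_cancel, Units.val_one]
    rw [hX, zero_mul] at h1
    have hne : Nonempty ι := by
      rcases isEmpty_or_nonempty ι with h | h
      · rw [Fintype.card_eq_zero] at hodd
        exact absurd hodd (by decide)
      · exact h
    exact zero_ne_one h1
  exact (mem_scalars_iff x).2 ⟨Units.mk0 c hc0, hX⟩

end Cfsg.Agent.Lib.Helper98.OAsch
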