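import Cfsg.Agent.Lib.Helper98.OAsch.TWF0
import Cfsg.Agent.Lib.Helper35.OAsch.TB3
import Cfsg.Agent.Lib.Helper8.OAsch.TW3

set_option autoImplicit false

namespace Cfsg.Agent.Lib.Helper98.OAsch

open Cfsg Cfsg.Geo Matrix Cfsg.Agent.Lib.Helper13.Asch Cfsg.Agent.Lib.Helper21.Asch
  Cfsg.Agent.Lib.Helper21.OAsch
open scoped Kronecker MatrixGroups

variable {ι : Type} [Fintype ι] [DecidableEq ι] {F : Type*} [Field F]
variable {Q : (ι → F) → F} {G : Matrix ι ι F}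

/-- TWF -/
theorem c7_of_pure [Fintype F] (hO : OData Q G) (H : Subgroup (GL ι F)) {k t : ℕ} (hko : Odd k)
    (hk : 3 ≤ k) (ht : 2 ≤ t) (hex : ¬ (Fintype.card F = 3 ∧ k = 3))
    (e : ι ≃ (Fin t → Fin k)) (P : GL ι F) (Γ : Fin t → GL (Fin k) F)
    (hG : Gp e P G = pureT (fun i => (Γ i : Matrix (Fin k) (Fin k) F)))
    (hH : H ≤ tensorWreathSubgroup k t e P) : C7 Q H :=
  c7_of_pure_symm hO H hko hk ht hex e P Γ
    (Cfsg.Agent.Lib.Helper8.OAsch.pure_symm hko Γ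
      (by rw [← hG]; exact (Cfsg.Agent.Lib.Helper35.OAsch.Gp_facts hO e P).1)) hG hH

end Cfsg.Agent.Lib.Helper98.OAsch
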