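import Cfsg.Agent.Lib.Helper21.OAsch.Defs2
import Cfsg.Agent.Lib.Helper8.OAsch.TW4
import Cfsg.Agent.Lib.Helper65.OAsch.TW5
import Cfsg.Agent.Lib.Helper15.OAsch.TW6

set_option autoImplicit false

namespace Cfsg.Agent.Lib.Helper98.OAsch

open Cfsg Cfsg.Geo Matrix Cfsg.Agent.Lib.Helper13.Asch Cfsg.Agent.Lib.Helper21.Asch
  Cfsg.Agent.Lib.Helper21.OAsch
open scoped Kronecker MatrixGroups

variable {ι : Type} [Fintype ι] [DecidableEq ι] {F : Type*} [Field F]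
variable {Q : (ι → F) → F} {G : Matrix ι ι F}

lemma twf_pureT_transpose {k t : ℕ} (f : Fin t → Matrix (Fin k) (Fin k) F) :
    (pureT f)ᵀ = pureT (fun i => (f i)ᵀ) := by
  ext x y
  simp [pureT_apply]

lemma twf_pureT_smul {k t : ℕ} (c : Fin t → F) (f : Fin t → Matrix (Fin k) (Fin k) F) :
    pureT (fun i => c i • f i) = (∏ i, c i) • pureT f := by
  ext x y
  simp [pureT_apply, Finset.prod_mul_distrib]

/-- TWF, with the symmetry of the factors as a hypothesis -/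
theorem c7_of_pure_symm [Fintype F] (hO : OData Q G) (H : Subgroup (GL ι F)) {k t : ℕ} (hko : Odd k)
    (hk : 3 ≤ k) (ht : 2 ≤ t) (hex : ¬ (Fintype.card F = 3 ∧ k = 3))
    (e : ι ≃ (Fin t → Fin k)) (P : GL ι F) (Γ : Fin t → GL (Fin k) F)
    (hsym : ∀ i, (Γ i : Matrix (Fin k) (Fin k) F)ᵀ = Γ i)
    (hG : Gp e P G = pureT (fun i => (Γ i : Matrix (Fin k) (Fin k) F)))
    (hH : H ≤ tensorWreathSubgroup k t e P) : C7 Q H := by
  classical
  have hu : ∀ i, IsUnit (Γ i : Matrix (Fin k) (Fin k) F).det := fun i =>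
    (Matrix.isUnit_iff_isUnit_det _).1 (Γ i).isUnit
  let i0 : Fin t := ⟨0, by omega⟩
  have h4 : ∀ i, ∃ (g : GL (Fin k) F) (c : F), c ≠ 0 ∧
      (g : Matrix (Fin k) (Fin k) F)ᵀ * (Γ i : Matrix (Fin k) (Fin k) F) *
        (g : Matrix (Fin k) (Fin k) F) = c • (Γ i0 : Matrix (Fin k) (Fin k) F) := fun i =>
    Cfsg.Agent.Lib.Helper8.OAsch.sim_odd hO.two hko _ _ (hsym i0) (hsym i) (hu i0) (hu i)
  choose g c hc hg using h4
  obtain ⟨P', hP', hGp⟩ := Cfsg.Agent.Lib.Helper65.OAsch.wreath_adjust e P g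
  refine Cfsg.Agent.Lib.Helper15.OAsch.c7_of_gram hO H e P' hk ht hex
    (Γ i0 : Matrix (Fin k) (Fin k) F) (hsym i0) (hu i0) (∏ i, c i)
    (Finset.prod_ne_zero_iff.2 (fun i _ => hc i)) ?_ (hP'.symm ▸ hH)
  rw [hGp G, hG, twf_pureT_transpose, ← pureT_mul, ← pureT_mul, ← twf_pureT_smul]
  congr 1
  funext i
  exact hg i

end Cfsg.Agent.Lib.Helper98.OAsch
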